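import Mathlib
import Cfsg.Agent.H996.Deg.Two

/-!
# The edge `2 - l` for `PSp m F`, `|F| = 2`, `3 ≤ m` (helper996)
-/

set_option autoImplicit false

namespace Cfsg.Agent.H996.Deg.Two

open Cfsg

/-- `PSp_{2m}(2)`, `m ≥ 3`: `2` is adjacent to some prime (`H477.HC.EdgeSp2`) -/
theorem edge_Sp2 (F : Type) [Field F] [Fintype F] (m : ℕ) (hm : 3 ≤ m) (hF : Fintype.card F = 2) :
    ∃ l, H671.H5.Adj 2 l (PSp m F) := by
  have hch : CharP F 2 := by
    obtain ⟨r, hch⟩ := CharP.exists F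
    obtain ⟨f, hr, hcard⟩ := FiniteField.card F r
    have h6 : r ∣ 2 := by rw [← hF, hcard]; exact dvd_pow_self r f.ne_zero
    rwa [(Nat.prime_dvd_prime_iff_eq hr Nat.prime_two).1 h6] at hch
  obtain ⟨l, -, -, h⟩ := adj_PSp (F := F) hm
  exact ⟨l, h⟩

end Cfsg.Agent.H996.Deg.Two
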